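import Cfsg.Agent.J4Five67.Core
import Cfsg.Agent.J4Five49.Basic
import Cfsg.Agent.J4Facts21.Basic

/-!
The centraliser of an element of order five modulo the group it generates, in a group of
Janko-four type, from the facts inside the centraliser of the involution.
-/

set_option autoImplicit false

universe u

namespace CfsgLib.J4Five21

/-- The facts about an element of order five of the centraliser of the involution `z` that are
used, and the bound on the other involutions. -/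
structure HData {G : Type u} [Group G] (z q : G) where
  E : Subgroup G
  inn : Subgroup G
  A1 : Subgroup G
  A2 : Subgroup G
  z2 : orderOf z = 2
  q5 : orderOf q = 5
  qz : Commute q z
  cardH : ¬ 25 ∣ Nat.card (Subgroup.centralizer ({z} : Set G))
  square : ∃ h, Commute h z ∧ h * q * h⁻¹ = q ^ 2
  cardCent : Nat.card ↥(Subgroup.centralizer ({z} : Set G) ⊓ Subgroup.centralizer ({q} : Set G)) = 960
  E_le : ∀ a ∈ E, Commute a z
  zE : z ∈ E
  E_four : ∀ a ∈ E, a ^ 4 = 1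
  normalE : ∀ g, Commute g z → ∀ a ∈ E, g * a * g⁻¹ ∈ E
  cardF : Nat.card ↥(E ⊓ Subgroup.centralizer ({q} : Set G)) = 32
  commE : ∀ a ∈ E, ∀ b ∈ E, a * b * a⁻¹ * b⁻¹ = 1 ∨ a * b * a⁻¹ * b⁻¹ = z
  centF : ∀ a ∈ E, Commute a q → (∀ b ∈ E, Commute b q → Commute a b) → a = 1 ∨ a = z
  E_inn : E ≤ inn
  q_inn : q ∈ inn
  inn_invol : ∀ a ∈ inn, Commute a q → a * a = 1 → a ∈ E
  inn_mul : ∀ a b, Commute a z → Commute b z → a ∉ inn → b ∉ inn → a * b ∈ inn
  symm : ∀ g, g * z * g⁻¹ ∈ E → g⁻¹ * z * g ∈ E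
  A1_le : A1 ≤ E ⊓ Subgroup.centralizer ({q} : Set G)
  A2_le : A2 ≤ E ⊓ Subgroup.centralizer ({q} : Set G)
  A1_sq : ∀ a ∈ A1, a * a = 1
  A2_sq : ∀ a ∈ A2, a * a = 1
  A1_z : z ∈ A1
  A2_z : z ∈ A2
  A1_card : Nat.card A1 = 8
  A2_card : Nat.card A2 = 8
  disj : ∀ a ∈ A1, a ∈ A2 → a = 1 ∨ a = z
  lift1 : ∀ a ∈ A1, a ≠ 1 → a ≠ z → ¬ (IsConj z a ∧ IsConj z (a * z))
  lift2 : ∀ a ∈ A2, a ≠ 1 → a ≠ z → ¬ (IsConj z a ∧ IsConj z (a * z))
  bound : ∀ t, orderOf t = 2 → ¬ IsConj z t → Commute q t →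
    Nat.card ↥(Subgroup.centralizer ({q} : Set G) ⊓ Subgroup.centralizer ({t} : Set G)) ≤ 80

variable {G : Type u} [Group G]

/-- The centraliser of an element. -/
abbrev Cq (q : G) : Subgroup G := Subgroup.centralizer ({q} : Set G)

/-- The element in its centraliser. -/
def qC (q : G) : Cq q := ⟨q, Subgroup.mem_centralizer_singleton_iff.2 rfl⟩

theorem qC_comm (q : G) (a : Cq q) : Commute (qC q) a :=
  Subtype.ext (Subgroup.mem_centralizer_singleton_iff.1 a.2).symm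

instance zpowers_qC_normal (q : G) : (Subgroup.zpowers (qC q)).Normal :=
  ⟨fun x hx a => by
    obtain ⟨i, rfl⟩ := hx
    have e : a * (qC q) ^ i * a⁻¹ = (qC q) ^ i := by
      rw [((qC_comm q a).zpow_left i).symm.eq, mul_inv_cancel_right]
    show a * (qC q) ^ i * a⁻¹ ∈ Subgroup.zpowers (qC q)
    rw [e]
    exact Subgroup.zpow_mem_zpowers _ i⟩

/-- The centraliser modulo the element. -/
abbrev XQ (q : G) : Type u := ↥(Cq q) ⧸ Subgroup.zpowers (qC q)

/-- The projection. -/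
abbrev pr (q : G) : ↥(Cq q) →* XQ q := QuotientGroup.mk' _

theorem pr_surjective (q : G) : Function.Surjective (pr q) := QuotientGroup.mk'_surjective _

theorem mem_Cq {q a : G} : a ∈ Cq q ↔ Commute a q := Subgroup.mem_centralizer_singleton_iff

variable [Finite G] {q : G} (hq : orderOf q = 5)

include hq

theorem orderOf_qC : orderOf (qC q) = 5 := by rw [← Subgroup.orderOf_coe]; exact hq

theorem card_mk_fibre : Nat.card (Subgroup.zpowers (qC q)) = 5 := by
  rw [Nat.card_zpowers, orderOf_qC hq]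

theorem eq_of_mk_eq {a b : Cq q} (ha : a ^ 4 = 1) (hb : b ^ 4 = 1) (h : pr q a = pr q b) :
    a = b := by
  obtain ⟨w, hw, hwe⟩ := (QuotientGroup.mk'_eq_mk' _).1 h
  obtain ⟨i, -, rfl⟩ := J4Facts21.zpowers_cases (p := 5) (by norm_num)
    (orderOf_qC hq ▸ pow_orderOf_eq_one (qC q)) hw
  have hc : Commute a (qC q ^ i) := ((qC_comm q a).pow_left i).symm
  have h4 : qC q ^ (4 * i) = 1 := by
    have := congrArg (· ^ 4) hwe
    simp only [hc.mul_pow, ha, hb, one_mul, ← pow_mul] at this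
    rwa [mul_comm] at this
  have hd : 5 ∣ 4 * i := orderOf_qC hq ▸ orderOf_dvd_of_pow_eq_one h4
  have hd' : 5 ∣ i := (Nat.Coprime.dvd_mul_left (by norm_num : Nat.Coprime 5 4)).1 hd
  obtain ⟨k, rfl⟩ := hd'
  rw [pow_mul, ← orderOf_qC hq, pow_orderOf_eq_one, one_pow, mul_one] at hwe
  exact hwe

theorem exists_lift_sq {x : XQ q} (hx : x * x = 1) : ∃ b : Cq q, b * b = 1 ∧ pr q b = x := by
  obtain ⟨a, rfl⟩ := pr_surjective q x
  refine ⟨a ^ 5, ?_, ?_⟩
  · have h : a * a ∈ Subgroup.zpowers (qC q) := by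
      rw [← QuotientGroup.eq_one_iff, ← hx]; rfl
    obtain ⟨i, hi⟩ := h
    rw [← pow_add, show 5 + 5 = 2 * 5 by norm_num, pow_mul, pow_two, ← hi,
      ← zpow_natCast ((qC q) ^ i) 5, ← zpow_mul, mul_comm, zpow_mul, zpow_natCast,
      ← orderOf_qC hq, pow_orderOf_eq_one, one_zpow]
  · rw [map_pow]
    have : pr q a ^ 5 = pr q a * ((pr q a * pr q a) * (pr q a * pr q a)) := by
      simp only [pow_succ, pow_zero, one_mul, mul_assoc]
    rw [this, hx, one_mul, mul_one]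

theorem sq_four {a : Cq q} (ha : a * a = 1) : a ^ 4 = 1 := by
  rw [show (4 : ℕ) = 2 * 2 by norm_num, pow_mul, pow_two a, ha, one_pow]

theorem commute_of_mk {a b : Cq q} (hb : b * b = 1) (h : Commute (pr q a) (pr q b)) :
    Commute a b := by
  have hab : (a * b * a⁻¹) * (a * b * a⁻¹) = 1 := by
    rw [show a * b * a⁻¹ * (a * b * a⁻¹) = a * (b * b) * a⁻¹ by group, hb, mul_one, mul_inv_cancel]
  refine mul_inv_eq_iff_eq_mul.1 (eq_of_mk_eq hq (sq_four hq hab) (sq_four hq hb) ?_)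
  rw [map_mul, map_mul, map_inv, h.eq, mul_inv_cancel_right]

theorem card_map_mul (S : Subgroup (XQ q)) :
    Nat.card ↥(S.comap (pr q)) = 5 * Nat.card S := by
  have h1 := Subgroup.card_mul_index (S.comap (pr q))
  have h2 := Subgroup.card_mul_index S
  rw [Subgroup.index_comap_of_surjective _ (pr_surjective q)] at h1
  have h3 : Nat.card ↥(Cq q) = Nat.card (XQ q) * 5 := by
    rw [Subgroup.card_eq_card_quotient_mul_card_subgroup (Subgroup.zpowers (qC q)),
      card_mk_fibre hq]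
  rw [h3, ← h2] at h1
  have hpos : 0 < S.index := Nat.pos_of_ne_zero Subgroup.index_ne_zero_of_finite
  refine Nat.eq_of_mul_eq_mul_right hpos ?_
  rw [h1]; ring

/-- The centraliser of an involution downstairs. -/
theorem card_centralizer_mk {b : Cq q} (hb : b * b = 1) :
    5 * Nat.card (Subgroup.centralizer ({pr q b} : Set (XQ q))) =
      Nat.card ↥(Subgroup.centralizer ({(b : G)} : Set G) ⊓ Cq q) := by
  rw [← card_map_mul hq]
  have e : (Subgroup.centralizer ({pr q b} : Set (XQ q))).comap (pr q) =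
      (Subgroup.centralizer ({(b : G)} : Set G) ⊓ Cq q).subgroupOf (Cq q) := by
    ext a
    rw [Subgroup.mem_comap, Subgroup.mem_centralizer_singleton_iff, Subgroup.mem_subgroupOf,
      Subgroup.mem_inf, Subgroup.mem_centralizer_singleton_iff]
    constructor
    · exact fun h => ⟨congrArg Subtype.val (commute_of_mk hq hb h).eq, a.2⟩
    · rintro ⟨h, -⟩
      rw [← map_mul, show a * b = b * a from Subtype.ext h, map_mul]
  rw [e]
  exact Nat.card_congr (Subgroup.subgroupOfEquivOfLe inf_le_right).toEquiv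

omit hq

/-- Powers of a conjugating element. -/
theorem conj_pow_iterate {q g : G} {r : ℕ} (h : g * q * g⁻¹ = q ^ r) :
    ∀ m : ℕ, g ^ m * q * (g ^ m)⁻¹ = q ^ r ^ m
  | 0 => by simp
  | m + 1 => by
    rw [pow_succ' g, show g * g ^ m * q * (g * g ^ m)⁻¹ = g * (g ^ m * q * (g ^ m)⁻¹) * g⁻¹ by
      group, conj_pow_iterate h m, ← conj_pow, h, ← pow_mul, pow_succ' r]

namespace HData

variable {z : G} (d : HData z q)

/-- The image of a subgroup. -/
abbrev im (A : Subgroup G) : Subgroup (XQ q) := (A.subgroupOf (Cq q)).map (pr q)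

include d

theorem z_sq : z * z = 1 := by rw [← pow_two, ← d.z2, pow_orderOf_eq_one]

theorem z_ne : z ≠ 1 := fun h => by
  have := d.z2
  rw [h, orderOf_one] at this
  omega

/-- The involution in the centraliser. -/
def zC : Cq q := ⟨z, mem_Cq.2 d.qz.symm⟩

theorem zC_sq : d.zC * d.zC = 1 := Subtype.ext d.z_sq

theorem mul_mod_pow {i : ℕ} : q ^ i = q ^ (i % 5) := by
  rw [pow_eq_pow_mod i (d.q5 ▸ pow_orderOf_eq_one q : q ^ 5 = 1)]

/-- The normaliser of the element in the centraliser of the involution induces every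
automorphism. -/
theorem exists_norm {j : ℕ} (hj : 0 < j) (hj5 : j < 5) :
    ∃ h, Commute h z ∧ h * q * h⁻¹ = q ^ j := by
  obtain ⟨h, hz, hh⟩ := d.square
  have key := conj_pow_iterate hh
  interval_cases j
  · exact ⟨1, Commute.one_left z, by simp⟩
  · exact ⟨h, hz, hh⟩
  · refine ⟨h ^ 3, hz.pow_left 3, (key 3).trans ?_⟩
    exact d.mul_mod_pow
  · exact ⟨h ^ 2, hz.pow_left 2, key 2⟩

/-- Fusion of the involution inside the centraliser. -/
theorem fusion {b : G} (hb : Commute b q) (h : IsConj z b) :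
    ∃ g, Commute g q ∧ g * z * g⁻¹ = b := by
  haveI : Fact (Nat.Prime 5) := ⟨by norm_num⟩
  obtain ⟨g, rfl⟩ := isConj_iff.1 h
  set H := Subgroup.centralizer ({z} : Set G) with hH
  have hgq : g⁻¹ * q * g ∈ H := by
    rw [hH, Subgroup.mem_centralizer_singleton_iff]
    calc g⁻¹ * q * g * z = g⁻¹ * (q * (g * z * g⁻¹)) * g := by group
      _ = g⁻¹ * ((g * z * g⁻¹) * q) * g := by rw [hb.eq]
      _ = z * (g⁻¹ * q * g) := by group
  have hfac : (Nat.card H).factorization 5 = 1 := by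
    have h1 : 5 ∣ Nat.card H :=
      dvd_trans (by rw [Subgroup.orderOf_mk, d.q5])
        (orderOf_dvd_natCard (⟨q, Subgroup.mem_centralizer_singleton_iff.2 d.qz.eq⟩ : H))
    have hpos : Nat.card H ≠ 0 := Nat.card_pos.ne'
    have h2 := (Nat.Prime.pow_dvd_iff_le_factorization (k := 1) Nat.prime_five hpos).1
      (by simpa using h1)
    have h3 : ¬ 2 ≤ (Nat.card H).factorization 5 := fun hle => d.cardH
      ((Nat.Prime.pow_dvd_iff_le_factorization (k := 2) Nat.prime_five hpos).2 hle)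
    omega
  let a : H := ⟨q, Subgroup.mem_centralizer_singleton_iff.2 d.qz.eq⟩
  let a' : H := ⟨g⁻¹ * q * g, hgq⟩
  have ha : orderOf a = 5 := by rw [← Subgroup.orderOf_coe]; exact d.q5
  have ha' : orderOf a' = 5 := by
    rw [← Subgroup.orderOf_coe]
    show orderOf (g⁻¹ * q * g) = 5
    rw [← d.q5]
    have := orderOf_injective (MulAut.conj g⁻¹).toMonoidHom (MulAut.conj g⁻¹).injective q
    simpa using this
  obtain ⟨k, hk⟩ := MulAction.exists_smul_eq H
    (Sylow.ofCard (Subgroup.zpowers a) (by rw [Nat.card_zpowers, ha, hfac, pow_one]) : Sylow 5 H)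
    (Sylow.ofCard (Subgroup.zpowers a') (by rw [Nat.card_zpowers, ha', hfac, pow_one]))
  have he : (Subgroup.zpowers a).map (MulAut.conj k).toMonoidHom = Subgroup.zpowers a' :=
    congrArg Sylow.toSubgroup hk
  obtain ⟨c, hc, hck⟩ := Subgroup.mem_map.1
    (he.symm ▸ Subgroup.mem_zpowers a' : a' ∈ (Subgroup.zpowers a).map (MulAut.conj k).toMonoidHom)
  obtain ⟨j, hj5, rfl⟩ := J4Facts21.zpowers_cases (p := 5) (by norm_num)
    (ha ▸ pow_orderOf_eq_one a) hc
  have hkj : (k : G) * q ^ j * (k : G)⁻¹ = g⁻¹ * q * g := congrArg Subtype.val hck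
  have hj : 0 < j := by
    rcases Nat.eq_zero_or_pos j with rfl | h
    · exfalso
      rw [pow_zero, mul_one, mul_inv_cancel] at hkj
      have h' := d.q5
      rw [show q = g * (g⁻¹ * q * g) * g⁻¹ by group, ← hkj, mul_one, mul_inv_cancel,
        orderOf_one] at h'
      omega
    · exact h
  obtain ⟨m, hmz, hm⟩ := d.exists_norm hj hj5
  refine ⟨g * k * m, ?_, ?_⟩
  · refine mul_inv_eq_iff_eq_mul.1 ?_
    calc g * k * m * q * (g * k * m)⁻¹ = g * (k * (m * q * m⁻¹) * (k : G)⁻¹) * g⁻¹ := by group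
      _ = q := by rw [hm, hkj]; group
  · have hkz : Commute (k : G) z := Subgroup.mem_centralizer_singleton_iff.1 k.2
    calc g * k * m * z * (g * k * m)⁻¹ = g * (k * (m * z * m⁻¹) * (k : G)⁻¹) * g⁻¹ := by group
      _ = g * z * g⁻¹ := by rw [hmz.eq, mul_inv_cancel_right, hkz.eq, mul_inv_cancel_right]

theorem isConj_of_mk {b : Cq q} (hb : b * b = 1) (h : IsConj (pr q d.zC) (pr q b)) :
    IsConj z (b : G) := by
  obtain ⟨x, hx⟩ := isConj_iff.1 h
  obtain ⟨a, rfl⟩ := pr_surjective q x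
  rw [← map_mul, ← map_inv, ← map_mul] at hx
  have e := eq_of_mk_eq d.q5 (sq_four d.q5 (by
    rw [show a * d.zC * a⁻¹ * (a * d.zC * a⁻¹) = a * (d.zC * d.zC) * a⁻¹ by group, d.zC_sq,
      mul_one, mul_inv_cancel])) (sq_four d.q5 hb) hx
  exact isConj_iff.2 ⟨a, congrArg Subtype.val e⟩

theorem mk_of_isConj {b : Cq q} (h : IsConj z (b : G)) : IsConj (pr q d.zC) (pr q b) := by
  obtain ⟨g, hg, hgz⟩ := d.fusion (mem_Cq.1 b.2) h
  refine isConj_iff.2 ⟨pr q ⟨g, mem_Cq.2 hg⟩, ?_⟩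
  rw [← map_inv, ← map_mul, ← map_mul]
  exact congrArg (pr q) (Subtype.ext hgz)

theorem commute_z {a : Cq q} (h : Commute (pr q a) (pr q d.zC)) : Commute (a : G) z :=
  congrArg Subtype.val (commute_of_mk d.q5 d.zC_sq h).eq

theorem four_of_E {a : Cq q} (ha : (a : G) ∈ d.E) : a ^ 4 = 1 :=
  Subtype.ext (by simpa using d.E_four a ha)

theorem card_im {A : Subgroup G} (hA : A ≤ d.E ⊓ Cq q) : Nat.card (im (q := q) A) = Nat.card A := by
  have hinj : Set.InjOn (pr q) (A.subgroupOf (Cq q) : Set (Cq q)) := fun a ha b hb e =>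
    eq_of_mk_eq d.q5 (d.four_of_E (hA ha).1) (d.four_of_E (hA hb).1) e
  rw [im, ← Nat.card_congr (Subgroup.subgroupOfEquivOfLe (hA.trans inf_le_right)).toEquiv]
  exact (Nat.card_congr (Equiv.Set.imageOfInjOn _ _ hinj)).symm

theorem mem_im_iff {A : Subgroup G} (hA : A ≤ d.E) {b : Cq q} (hb : b ^ 4 = 1) :
    pr q b ∈ im (q := q) A ↔ (b : G) ∈ A := by
  refine ⟨?_, fun h => ⟨b, h, rfl⟩⟩
  rintro ⟨a, ha, e⟩
  rw [← eq_of_mk_eq d.q5 (d.four_of_E (hA ha)) hb e]
  exact ha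

theorem mk_mem_inn {b : Cq q} : pr q b ∈ im (q := q) d.inn ↔ (b : G) ∈ d.inn := by
  refine ⟨?_, fun h => ⟨b, h, rfl⟩⟩
  rintro ⟨a, ha, e⟩
  obtain ⟨w, ⟨i, rfl⟩, rfl⟩ := (QuotientGroup.mk'_eq_mk' _).1 e
  show ((a * qC q ^ i : Cq q) : G) ∈ d.inn
  rw [Subgroup.coe_mul, Subgroup.coe_zpow]
  exact mul_mem ha (zpow_mem d.q_inn i)

theorem lift_aux {A : Subgroup G} (hA : A ≤ d.E ⊓ Cq q)
    (h : ∀ a ∈ A, a ≠ 1 → a ≠ z → ¬ (IsConj z a ∧ IsConj z (a * z))) (hsq : ∀ a ∈ A, a * a = 1)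
    (x : XQ q) (hx : x ∈ im (q := q) A) (h1 : x ≠ 1) (hz : x ≠ pr q d.zC) :
    ¬ IsConj (pr q d.zC) x ∨ ¬ IsConj (pr q d.zC) (x * pr q d.zC) := by
  obtain ⟨a, ha, rfl⟩ := hx
  rw [← not_and_or]
  rintro ⟨c1, c2⟩
  rw [← map_mul] at c2
  have haz : (a : G) * z * ((a : G) * z) = 1 := by
    have hc : Commute (a : G) z := d.E_le _ (hA ha).1
    rw [hc.symm.mul_mul_mul_comm, hsq (a : G) ha, d.z_sq, one_mul]
  exact h a ha (fun e => h1 (by rw [show a = 1 from Subtype.ext e, map_one]))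
    (fun e => hz (by rw [show a = d.zC from Subtype.ext e]))
    ⟨d.isConj_of_mk (Subtype.ext (hsq _ ha)) c1, d.isConj_of_mk (Subtype.ext haz) c2⟩

/-- The hypotheses of the abstract analysis. -/
def toData : J4Five67.Data (XQ q) where
  z := pr q d.zC
  O := im (q := q) d.E
  inn := im (q := q) d.inn
  A1 := im (q := q) d.A1
  A2 := im (q := q) d.A2
  zne h := d.z_ne (congrArg Subtype.val (eq_of_mk_eq d.q5 (sq_four d.q5 d.zC_sq) (one_pow 4)
    (h.trans (map_one (pr q)).symm)))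
  zz := by rw [← map_mul, d.zC_sq, map_one]
  zmem := ⟨d.zC, d.zE, rfl⟩
  zO := by
    rintro _ ⟨a, ha, rfl⟩
    show pr q a * pr q d.zC = pr q d.zC * pr q a
    rw [← map_mul, ← map_mul, show a * d.zC = d.zC * a from Subtype.ext (d.E_le _ ha).eq]
  cardC := by
    have h := card_centralizer_mk d.q5 d.zC_sq
    rw [show (d.zC : G) = z from rfl, d.cardCent] at h
    omega
  cardO := by
    have e : im (q := q) d.E = im (q := q) (d.E ⊓ Cq q) := by
      simp only [im, Subgroup.inf_subgroupOf_right]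
    rw [e, d.card_im le_rfl, d.cardF]
  normalO := by
    rintro x hx _ ⟨a, ha, rfl⟩
    obtain ⟨g, rfl⟩ := pr_surjective q x
    rw [← map_mul, ← map_inv, ← map_mul]
    exact ⟨g * a * g⁻¹, d.normalE g (d.commute_z hx) a ha, rfl⟩
  commO := by
    rintro _ ⟨a, ha, rfl⟩ _ ⟨b, hb, rfl⟩
    simp only [← map_mul, ← map_inv]
    rcases d.commE _ ha _ hb with e | e
    · left; rw [show a * b * a⁻¹ * b⁻¹ = 1 from Subtype.ext e, map_one]
    · right; rw [show a * b * a⁻¹ * b⁻¹ = d.zC from Subtype.ext e]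
  centO := by
    rintro _ ⟨a, ha, rfl⟩ hc
    suffices hall : ∀ b ∈ d.E, Commute b q → Commute (a : G) b by
      rcases d.centF a ha (mem_Cq.1 a.2) hall with e | e
      · left; rw [show a = 1 from Subtype.ext e, map_one]
      · right; rw [show a = d.zC from Subtype.ext e]
    intro b hb hbq
    · have hb' := hc (pr q ⟨b, mem_Cq.2 hbq⟩) ⟨⟨b, mem_Cq.2 hbq⟩, hb, rfl⟩
      rcases d.commE _ ha _ hb with e | e
      · exact mul_inv_eq_iff_eq_mul.1 (mul_inv_eq_one.1 e)
      · exfalso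
        refine d.z_ne ?_
        have e' : a * ⟨b, mem_Cq.2 hbq⟩ * a⁻¹ * (⟨b, mem_Cq.2 hbq⟩ : Cq q)⁻¹ = d.zC :=
          Subtype.ext e
        have h1 : pr q d.zC = 1 := by
          rw [← e', map_mul, map_mul, map_mul, map_inv, map_inv, hb'.eq, mul_inv_cancel_right,
            mul_inv_cancel]
        exact congrArg Subtype.val (eq_of_mk_eq d.q5 (sq_four d.q5 d.zC_sq) (one_pow 4)
          (h1.trans (map_one (pr q)).symm))
  O_le_inn := Subgroup.map_mono fun _ h => d.E_inn h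
  inn_invol x hx hx2 := by
    obtain ⟨b, hb, rfl⟩ := exists_lift_sq d.q5 hx2
    exact ⟨b, d.inn_invol _ (d.mk_mem_inn.1 hx) (mem_Cq.1 b.2) (congrArg Subtype.val hb), rfl⟩
  inn_mul := by
    intro x y hx hy hxi hyi
    obtain ⟨a, rfl⟩ := pr_surjective q x
    obtain ⟨b, rfl⟩ := pr_surjective q y
    rw [← map_mul]
    exact d.mk_mem_inn.2 (d.inn_mul a b (d.commute_z hx) (d.commute_z hy)
      (fun h => hxi (d.mk_mem_inn.2 h)) fun h => hyi (d.mk_mem_inn.2 h))
  symm x hx := by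
    obtain ⟨g, rfl⟩ := pr_surjective q x
    rw [← map_inv, ← map_mul, ← map_mul] at hx ⊢
    have h2 : g * d.zC * g⁻¹ * (g * d.zC * g⁻¹) = 1 := by
      rw [show g * d.zC * g⁻¹ * (g * d.zC * g⁻¹) = g * (d.zC * d.zC) * g⁻¹ by group, d.zC_sq,
        mul_one, mul_inv_cancel]
    exact ⟨g⁻¹ * d.zC * g, d.symm g ((d.mem_im_iff le_rfl (sq_four d.q5 h2)).1 hx), rfl⟩
  A1_le := Subgroup.map_mono fun _ h => (d.A1_le h).1
  A2_le := Subgroup.map_mono fun _ h => (d.A2_le h).1
  A1_sq := by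
    rintro _ ⟨a, ha, rfl⟩
    rw [← map_mul, show a * a = 1 from Subtype.ext (d.A1_sq _ ha), map_one]
  A2_sq := by
    rintro _ ⟨a, ha, rfl⟩
    rw [← map_mul, show a * a = 1 from Subtype.ext (d.A2_sq _ ha), map_one]
  A1_z := ⟨d.zC, d.A1_z, rfl⟩
  A2_z := ⟨d.zC, d.A2_z, rfl⟩
  A1_card := (d.card_im d.A1_le).trans d.A1_card
  A2_card := (d.card_im d.A2_le).trans d.A2_card
  disj := by
    rintro _ ⟨a, ha, rfl⟩ ha2
    have h2 := (d.mem_im_iff (d.A2_le.trans inf_le_left) (d.four_of_E (d.A1_le ha).1)).1 ha2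
    rcases d.disj _ ha h2 with e | e
    · left; rw [show a = 1 from Subtype.ext e, map_one]
    · right; rw [show a = d.zC from Subtype.ext e]
  lift1 := d.lift_aux d.A1_le d.lift1 d.A1_sq
  lift2 := d.lift_aux d.A2_le d.lift2 d.A2_sq
  small x hx2 hx1 hn := by
    obtain ⟨b, hb, rfl⟩ := exists_lift_sq d.q5 hx2
    have hb2 : orderOf (b : G) = 2 := orderOf_eq_prime
      (by rw [pow_two]; exact congrArg Subtype.val hb)
      (fun e => hx1 (by rw [show b = 1 from Subtype.ext e, map_one]))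
    have hle := d.bound _ hb2 (fun h => hn (d.mk_of_isConj h)) (mem_Cq.1 b.2).symm
    have h := card_centralizer_mk d.q5 hb
    rw [show Subgroup.centralizer ({(b : G)} : Set G) ⊓ Cq q =
      Subgroup.centralizer ({q} : Set G) ⊓ Subgroup.centralizer ({(b : G)} : Set G) from inf_comm _ _] at h
    omega

end HData

end CfsgLib.J4Five21
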