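import Cfsg.Agent.J4Five21.Quot
import Cfsg.Agent.J4Five49.Second
import Cfsg.Agent.J4Five67.Quot

/-!
The facts about an element of order five of the centraliser of the involution, from the Janko-four
hypothesis and the two structure statements for the involutions of the second class.
-/

set_option autoImplicit false

universe u

namespace CfsgLib.J4Five21

open CfsgLib.Jf18

variable {G : Type u} [Group G] [Finite G]

/-- The facts for an element of order five centralising `z` and `p`. -/
theorem hdata_of_ctx (c : Ctx G) {q : G} (hq : q ∈ c.C) (h5 : orderOf q = 5)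
    (hS : J4Five49.SecondHyp c.z) (hO : J4Five49.OrbitHyp c.z) : Nonempty (HData c.z q) := by
  obtain ⟨A₁, A₂, h₁, h₂, hA⟩ := c.exists_layer_pair hq h5
  have hmod : ∀ V : Subgroup G, (∀ x ∈ V, x * x = 1) → Nat.card V = 2 ^ 11 → c.z ∈ V →
      Nat.card {x : G // x ∈ V ∧ IsConj c.z x} % 5 = 1 := c.mod_of_hyp hO
  have h2 : q ^ (2 : ℤ) ≠ 1 := by
    intro h
    have := orderOf_dvd_iff_zpow_eq_one.2 h
    rw [h5] at this
    norm_num at this
  obtain ⟨u, hu, huq⟩ := c.exists_power_map hq h5 h2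
  have hinnH : c.inn ≤ c.H := (sup_le c.E_le inf_le_left : c.E ⊔ c.C ≤ c.H)
  exact ⟨
    { E := c.E
      inn := c.inn
      A1 := A₁
      A2 := A₂
      z2 := c.orderOf_z
      q5 := h5
      qz := c.commute_z hq.1
      cardH := by
        have h := c.card_H
        change Nat.card (Subgroup.centralizer ({c.z} : Set G)) = _ at h
        rw [h]; norm_num
      square := ⟨u, c.commute_z hu.1, by rw [huq]; norm_cast⟩
      cardCent := c.card_cent_five hq h5
      E_le := fun a ha => c.commute_z (c.E_le ha)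
      zE := c.z_mem_E
      E_four := fun a ha => by
        rw [show (4 : ℕ) = 2 * 2 from rfl, pow_mul, pow_two a]
        rcases c.sqE ha with e | e <;> rw [e]
        · rw [one_pow]
        · rw [pow_two, c.z_mul_self]
      normalE := fun g hg a ha => c.normal_E (mem_cz.2 hg) ha
      cardF := c.card_fixFive hq h5
      commE := fun a ha b hb => c.commE ha hb
      centF := fun a ha haq h => c.center_fixFive hq h5
        ⟨ha, Subgroup.mem_centralizer_singleton_iff.2 haq⟩ fun b hb =>
          h b hb.1 (Subgroup.mem_centralizer_singleton_iff.1 hb.2)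
      E_inn := fun a ha => Subgroup.mem_sup_left ha
      q_inn := Subgroup.mem_sup_right hq
      inn_invol := fun a ha haq h => c.invol_inn hq h5 ha (hinnH ha) haq h
      inn_mul := fun a b ha hb ha' hb' => c.inn_mul (mem_cz.2 ha) (mem_cz.2 hb) ha' hb'
      symm := fun g hg => c.symm_E hg
      A1_le := h₁.le
      A2_le := h₂.le
      A1_sq := h₁.sq
      A2_sq := h₂.sq
      A1_z := h₁.zmem
      A2_z := h₂.zmem
      A1_card := h₁.card
      A2_card := h₂.card
      disj := hA
      lift1 := fun a ha h1 hz h => (h₁.lift c h5 hmod ha h1 hz).elim (fun e => e h.1) fun e => e h.2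
      lift2 := fun a ha h1 hz h => (h₂.lift c h5 hmod ha h1 hz).elim (fun e => e h.1) fun e => e h.2
      bound := fun t ht hn hc => J4Five49.card_second_le c.orderOf_z hS hO
        (c.card_cent_five_conj hq h5) h5 ht hn hc }⟩

/-- The facts for a generator of any subgroup of order five centralising `z`. -/
theorem exists_hdata {z : G} (hJ : Cfsg.IsOfJankoFourTypeAt z) (hS : J4Five49.SecondHyp z)
    (hO : J4Five49.OrbitHyp z) (Q : Subgroup G) (hQ : Nat.card Q = 5)
    (hQz : Q ≤ Subgroup.centralizer ({z} : Set G)) :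
    ∃ q : G, Subgroup.zpowers q = Q ∧ Nonempty (HData z q) := by
  obtain ⟨P, hP⟩ := hJ
  obtain ⟨c, rfl, -⟩ := exists_ctx hP
  obtain ⟨q₀, hq₀, h5⟩ := c.exists_five
  obtain ⟨h, hh, hiff⟩ := c.exists_conj_five hq₀.1 h5 hQz hQ
  set q := h⁻¹ * q₀ * h with hqdef
  have ho : orderOf q = 5 := by
    rw [hqdef, show h⁻¹ * q₀ * h = MulAut.conj h⁻¹ q₀ by simp, MulEquiv.orderOf_eq, h5]
  have hqQ : q ∈ Q := (hiff q).2 (by
    rw [show h * q * h⁻¹ = q₀ by rw [hqdef]; group]; exact Subgroup.mem_zpowers _)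
  refine ⟨q, Subgroup.eq_of_le_of_card_ge (Subgroup.zpowers_le.2 hqQ)
    (by rw [hQ, Nat.card_zpowers, ho]), ?_⟩
  have hcz : (c.conj h⁻¹).z = c.z := by
    show h⁻¹ * c.z * h⁻¹⁻¹ = c.z
    rw [(c.commute_z (inv_mem hh)).eq, mul_inv_cancel_right]
  have hqC : q ∈ (c.conj h⁻¹).C := by
    refine (c.conj h⁻¹).mem_C.2 ⟨?_, ?_⟩
    · show Commute q (h⁻¹ * c.z * h⁻¹⁻¹)
      have := (c.commute_z hq₀.1).conj h⁻¹
      rwa [inv_inv] at this ⊢
    · show Commute q (h⁻¹ * c.p * h⁻¹⁻¹)
      have := (c.mem_C.1 hq₀).2.conj h⁻¹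
      rwa [inv_inv] at this ⊢
  have := hdata_of_ctx (c.conj h⁻¹) hqC ho (hcz.symm ▸ hS) (hcz.symm ▸ hO)
  rwa [hcz] at this

end CfsgLib.J4Five21
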